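/-
Ranks of idempotents, weight projectors and intertwiners over a field of characteristic not 2.
-/
import Cfsg.Agent.H15.LXMore

set_option autoImplicit false
set_option linter.unusedSectionVars false

namespace Cfsg.Agent.H51.BR

open Finset Module Classical H15 H97 Subgroup

variable {F : Type*} [Field F] {V : Type*} [AddCommGroup V] [Module F V] [FiniteDimensional F V]

noncomputable def rk (e : End F V) : ℕ := finrank F (LinearMap.range e)

noncomputable abbrev tr : End F V →ₗ[F] F := LinearMap.trace F V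

theorem tr_comm (a b : End F V) : tr (a * b) = tr (b * a) := LinearMap.trace_mul_comm _ _ _

theorem tr_idem {e : End F V} (h : e * e = e) : tr e = rk e := (LinearMap.IsIdempotentElem.isProj_range e h).trace

theorem rk_zero {e : End F V} : rk e = 0 ↔ e = 0 := by
  rw [rk, Submodule.finrank_eq_zero, LinearMap.range_eq_bot]

theorem rk_one : rk (1 : End F V) = finrank F V := by
  rw [rk, show LinearMap.range (1 : End F V) = ⊤ from LinearMap.range_id, finrank_top]

theorem rk_mul_le (a b : End F V) : rk (a * b) ≤ rk a := Submodule.finrank_mono (LinearMap.range_comp_le_range b a)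

theorem rk_mul_le' (a b : End F V) : rk (a * b) ≤ rk b := by
  rw [rk, End.mul_eq_comp, LinearMap.range_comp]; exact Submodule.finrank_map_le _ _

theorem rk_add {e f : End F V} (he : e * e = e) (hf : f * f = f) (h1 : e * f = 0) (h2 : f * e = 0) :
    rk (e + f) = rk e + rk f := by
  have k1 : LinearMap.range (e + f) = LinearMap.range e ⊔ LinearMap.range f :=
    le_antisymm (LinearMap.range_add_le _ _) (sup_le
      (by rintro _ ⟨x, rfl⟩; exact ⟨e x, congrArg (· x) (show (e + f) * e = e by rw [add_mul, he, h2, add_zero])⟩)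
      (by rintro _ ⟨x, rfl⟩; exact ⟨f x, congrArg (· x) (show (e + f) * f = f by rw [add_mul, hf, h1, zero_add])⟩))
  have k2 : LinearMap.range e ⊓ LinearMap.range f = ⊥ := eq_bot_iff.2 (by
    rintro _ ⟨⟨x, rfl⟩, y, hy⟩
    have a : e (e x) = e x := congrArg (· x) he
    have b : e (f y) = 0 := congrArg (· y) h1
    rw [Submodule.mem_bot, ← a, ← hy, b])
  have := Submodule.finrank_sup_add_finrank_inf_eq (LinearMap.range e) (LinearMap.range f)
  rwa [← k1, k2, finrank_bot, add_zero] at this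

theorem rk_sum (S : Finset (End F V)) (h1 : ∀ x ∈ S, x * x = x) (h2 : ∀ x ∈ S, ∀ y ∈ S, x ≠ y → x * y = 0) :
    rk (∑ x ∈ S, x) = ∑ x ∈ S, rk x := by
  induction S using Finset.induction_on with
  | empty => simp [rk_zero]
  | insert a S ha ih =>
    have k : ∀ x ∈ S, a ≠ x := fun x hx e => ha (e ▸ hx)
    rw [sum_insert ha, sum_insert ha, rk_add (h1 a (mem_insert_self _ _)), ih (fun x hx => h1 x (mem_insert_of_mem hx))
      fun x hx y hy => h2 x (mem_insert_of_mem hx) y (mem_insert_of_mem hy)]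
    · rw [sum_mul]
      refine sum_congr rfl fun x hx => ?_
      rw [mul_sum, sum_eq_single_of_mem x hx fun y hy e => h2 x (mem_insert_of_mem hx) y (mem_insert_of_mem hy) e.symm,
        h1 x (mem_insert_of_mem hx)]
    · rw [mul_sum]; exact sum_eq_zero fun x hx => h2 a (mem_insert_self _ _) x (mem_insert_of_mem hx) (k x hx)
    · rw [sum_mul]; exact sum_eq_zero fun x hx => h2 x (mem_insert_of_mem hx) a (mem_insert_self _ _) (k x hx).symm

theorem rk_sum_le {ι : Type*} (s : Finset ι) (f : ι → End F V) (E : End F V) (k : ℕ) (h1 : ∀ i ∈ s, f i * f i = f i)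
    (h2 : ∀ i ∈ s, ∀ j ∈ s, f i = f j ∨ f i * f j = 0) (h3 : ∀ i ∈ s, #{j ∈ s | f i * f j ≠ 0} ≤ k)
    (h4 : ∀ i ∈ s, E * f i = f i) : ∑ i ∈ s, rk (f i) ≤ k * rk E := by
  rw [sum_comp rk f]
  calc _ ≤ ∑ x ∈ s.image f, k * rk x := sum_le_sum fun x hx => by
        obtain ⟨i, hi, rfl⟩ := mem_image.1 hx
        by_cases e : f i = 0
        · simp [rk_zero.2 e]
        · refine Nat.mul_le_mul_right _ ((card_le_card fun j hj => ?_).trans (h3 i hi))
          rw [mem_filter] at hj ⊢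
          exact ⟨hj.1, by rwa [hj.2, h1 i hi]⟩
    _ = k * rk (E * ∑ x ∈ s.image f, x) := by
        rw [← mul_sum, ← rk_sum _ (by simpa using h1) (by
          simp only [mem_image]
          rintro _ ⟨i, hi, rfl⟩ _ ⟨j, hj, rfl⟩ e
          exact (h2 i hi j hj).resolve_left e), mul_sum]
        exact congrArg (k * rk ·) (sum_congr rfl (forall_mem_image.2 fun i hi => (h4 i hi).symm))
    _ ≤ _ := Nat.mul_le_mul_left _ (rk_mul_le _ _)

theorem line {e e' φ ψ : End F V} (h : rk e ≤ 1) (h' : rk e' ≤ 1) (h0 : φ ≠ 0) (h1 : e' * φ * e = φ)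
    (h2 : e' * ψ * e = ψ) : ∃ c : F, ψ = c • φ := by
  obtain ⟨v, hv⟩ := finrank_le_one_iff.1 h
  obtain ⟨w, hw⟩ := finrank_le_one_iff.1 h'
  obtain ⟨a, ha⟩ := hw ⟨e' (φ v), _, rfl⟩
  obtain ⟨b, hb⟩ := hw ⟨e' (ψ v), _, rfl⟩
  have k : ∀ x, ∃ c : F, φ x = c • a • (w : V) ∧ ψ x = c • b • (w : V) := fun x => by
    obtain ⟨c, hc⟩ := hv ⟨e x, _, rfl⟩
    have hc : c • (v : V) = e x := congrArg Subtype.val hc
    refine ⟨c, ?_, ?_⟩
    · rw [← h1, End.mul_apply, End.mul_apply, ← hc, map_smul, map_smul]; exact congrArg (c • ·.1) ha.symm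
    · rw [← h2, End.mul_apply, End.mul_apply, ← hc, map_smul, map_smul]; exact congrArg (c • ·.1) hb.symm
  have a0 : a ≠ 0 := by
    rintro rfl
    exact h0 (LinearMap.ext fun x => by obtain ⟨c, e, -⟩ := k x; simpa using e)
  refine ⟨b / a, LinearMap.ext fun x => ?_⟩
  obtain ⟨c, e1, e2⟩ := k x
  rw [LinearMap.smul_apply, e1, e2, smul_smul, smul_smul, smul_smul]
  congr 1
  field_simp

theorem exists_line {e e' : End F V} (he : e * e = e) (he' : e' * e' = e') (h : e ≠ 0) (h' : e' ≠ 0) :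
    ∃ φ, φ ≠ 0 ∧ e' * φ * e = φ := by
  obtain ⟨x, hx⟩ := DFunLike.ne_iff.1 h
  obtain ⟨y, hy⟩ := DFunLike.ne_iff.1 h'
  obtain ⟨l, hl⟩ := Module.Projective.exists_dual_eq_one F hx
  refine ⟨e' * l.smulRight y * e, fun k => hy ?_, by rw [← mul_assoc, ← mul_assoc, he', mul_assoc, he]⟩
  simpa [hl] using congrArg (· x) k

theorem rank_one {e f : End F V} (h : e * e = e) (h1 : rk e ≤ 1) (hf : f * e = e * f) : ∃ c : F, f * e = c • e := by
  by_cases h0 : e = 0
  · exact ⟨0, by simp [h0]⟩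
  exact line h1 h1 h0 (by rw [h, h]) (by rw [mul_assoc, mul_assoc, h, hf, ← mul_assoc, h])

theorem tr_move {a e e' : End F V} (h : e * e = e) (h1 : a * e = e' * a) (h2 : e * e' = 0) : tr (a * e) = 0 := by
  rw [← h, ← mul_assoc, h1, tr_comm, ← mul_assoc, h2, zero_mul, map_zero]

variable {G : Type*} [Group G]

section
variable {U : Type*} [AddCommGroup U] [Module F U] (Γ : G →* End F U)

theorem ap_mul (a b : G) (x : U) : Γ (a * b) x = Γ a (Γ b x) := by rw [map_mul, End.mul_apply]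

/-- the stabiliser of a vector -/
def Fx (x : U) : Subgroup G where
  carrier := {h | Γ h x = x}
  one_mem' := by simp
  mul_mem' := fun {a b} (ha : _ = _) (hb : _ = _) => show _ = _ by rw [ap_mul, hb, ha]
  inv_mem' := fun {a} (ha : _ = _) => show _ = _ by rw [← ha, ← ap_mul, inv_mul_cancel, map_one, ha]; rfl

/-- a perfect group acts trivially on a line -/
theorem scal {S : Type*} [Group S] (θ : G →* S) (H : Subgroup G) {T : Subgroup S} (hT : T ≤ H.map θ)
    (hp : ⁅T, T⁆ = T) {x : U} (hk : ∀ h ∈ H, θ h = 1 → Γ h x = x)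
    (hs : ∀ h ∈ H, θ h ∈ T → ∃ c : F, Γ h x = c • x) {h : G} (hh : h ∈ H) (hT' : θ h ∈ T) : Γ h x = x := by
  have e : (H ⊓ T.comap θ).map θ = T := le_antisymm (map_le_iff_le_comap.2 inf_le_right) fun t ht => by
    obtain ⟨a, ha, rfl⟩ := hT ht
    exact ⟨a, ⟨ha, ht⟩, rfl⟩
  rw [← hp, ← e, ← map_commutator] at hT'
  obtain ⟨a, ha, e1⟩ := hT'
  have k0 : ⁅H ⊓ T.comap θ, H ⊓ T.comap θ⁆ ≤ H ⊓ Fx Γ x := commutator_le.2 fun b hb c hc => by
    refine Subgroup.mem_inf.2 ⟨mul_mem (mul_mem (mul_mem hb.1 hc.1) (inv_mem hb.1)) (inv_mem hc.1), ?_⟩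
    obtain ⟨r, hr⟩ := hs b hb.1 hb.2
    obtain ⟨s, hs'⟩ := hs c hc.1 hc.2
    obtain ⟨t, ht⟩ := hs _ (inv_mem (mul_mem hc hb)).1 (inv_mem (mul_mem hc hb)).2
    have : Γ (b * c) x = Γ (c * b) x := by simp only [ap_mul, hr, hs', map_smul, smul_comm r]
    change Γ (b * c * b⁻¹ * c⁻¹) x = x
    rw [mul_assoc, ← mul_inv_rev, ap_mul, ht, map_smul, this, ← map_smul, ← ht, ← ap_mul]
    simp
  have k1 := k0 ha
  rw [← mul_inv_cancel_left a h, ap_mul, hk _ (mul_mem (inv_mem k1.1) hh) (by simp [e1]), k1.2]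

theorem orb_sum [Finite G] (H : Subgroup G) {x : U} (L : End F U) (h0 : L x = x)
    (h : ∀ h ∈ H, Γ h x = x ∨ L (Γ h x) = 0) :
    ∃ y, (∀ h ∈ H, Γ h y = y) ∧ L y = x ∧ ∀ M : End F U, (∀ h ∈ H, M (Γ h x) = 0) → M y = 0 := by
  have := Fintype.ofFinite G
  refine ⟨∑ y ∈ (univ.filter (· ∈ H)).image (Γ · x), y, fun a ha => ?_, ?_, fun M hM => ?_⟩
  · rw [map_sum]
    refine sum_nbij' (Γ a) (Γ a⁻¹) ?_ ?_ (fun _ _ => by simp [← ap_mul]) (fun _ _ => by simp [← ap_mul]) fun _ _ => rfl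
    all_goals
      simp only [mem_image, mem_filter, mem_univ, true_and]
      rintro _ ⟨b, hb, rfl⟩
      exact ⟨_, by aesop, ap_mul ..⟩
  · rw [map_sum, sum_eq_single_of_mem x (mem_image.2 ⟨1, by simp, by simp⟩), h0]
    simp only [mem_image, mem_filter, mem_univ, true_and]
    rintro _ ⟨b, hb, rfl⟩ e
    exact (h b hb).resolve_left e
  · rw [map_sum]
    refine sum_eq_zero ?_
    simp only [mem_image, mem_filter, mem_univ, true_and]
    rintro _ ⟨b, hb, rfl⟩
    exact hM b hb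

theorem glue2 {g c : G} {x : U} (hb : Γ ((c * g * c)⁻¹ * (g * c * g)) x = x) (hc : Γ c x = x)
    (h : x = 0 ∨ ∃ γ : F, Γ g x = γ • x) : Γ g x = x := by
  rcases h with rfl | ⟨γ, h⟩
  · simp
  have := congrArg (Γ (g⁻¹ * (c * g * c))) hb
  rw [← ap_mul, mul_assoc, mul_inv_cancel_left, mul_assoc, inv_mul_cancel_left] at this
  simp only [ap_mul, hc, h, map_smul] at this
  rw [h, this, ← map_smul, ← h, ← ap_mul, inv_mul_cancel, map_one, End.one_apply]

end

variable (α β : G →* End F V)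

/-- the action on the linear maps from the space of `α` to the space of `β` -/
noncomputable def Ga : G →* End F (End F V) where
  toFun h := LinearMap.mulLeftRight F (β h, α h⁻¹)
  map_one' := by ext1; simp
  map_mul' a b := by ext1; simp [mul_assoc]

theorem Ga_apply (h : G) (φ : End F V) : Ga α β h φ = β h * φ * α h⁻¹ := rfl

theorem inv_mul' (h : G) (x : End F V) : α h⁻¹ * (α h * x) = x := by rw [← mul_assoc, ← map_mul]; simp

theorem Ga_mul (γ : G →* End F V) (h : G) (φ ψ : End F V) : Ga α γ h (φ * ψ) = Ga β γ h φ * Ga α β h ψ := by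
  simp only [Ga_apply, mul_assoc, inv_mul']

variable {α β}

theorem Ga_eq {h : G} {φ ψ : End F V} : Ga α β h φ = ψ ↔ β h * φ = ψ * α h := by
  rw [Ga_apply]
  constructor
  · rintro rfl; rw [mul_assoc, ← map_mul]; simp
  · intro e; rw [e, mul_assoc, ← map_mul]; simp

theorem rk_Ga (h : G) (φ : End F V) : rk (Ga α β h φ) = rk φ := by
  have k : ∀ h φ, rk (Ga α β h φ) ≤ rk φ := fun h φ => (rk_mul_le _ _).trans (rk_mul_le' _ _)
  exact le_antisymm (k _ _) (by simpa [← ap_mul] using k h⁻¹ (Ga α β h φ))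

theorem tr_Ga (h : G) (φ : End F V) : tr (Ga α α h φ) = tr φ := by rw [Ga_apply, tr_comm, inv_mul']

theorem Ga_self (h a : G) : Ga α α h (α a) = α (h * a * h⁻¹) := by simp [Ga_apply]

theorem glue1 {g c : G} {φ X : End F V} (h1 : Ga α β (g * g) φ = φ)
    (h2 : Ga α β ((c * g * c)⁻¹ * (g * c * g)) φ = φ) (h3 : Ga α β c φ = φ)
    (h4 : Ga α α ((c * g * c)⁻¹ * (g * c * g)) X = X) (h5 : Ga α α c X = X) (h : (Ga α β g φ - φ) * X = 0) :
    (Ga α β g φ - φ) * Ga α α g X = 0 ∧ (Ga α β g φ - φ) * Ga α α (c * g) X = 0 := by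
  simp only [sub_mul, sub_eq_zero] at h ⊢
  have k1 : Ga α β g (φ * X) = φ * Ga α α g X := by rw [← h, Ga_mul α α, ← ap_mul, h1]
  have k2 : Ga α β (c * g) (φ * X) = φ * Ga α α (c * g) X := by rw [ap_mul, k1, Ga_mul α α, h3, ap_mul]
  have k : ∀ (Γ : G →* End F (End F V)) x, Γ ((c * g * c)⁻¹ * (g * c * g)) x = x → Γ c x = x →
      Γ g (Γ (c * g) x) = Γ (c * g) x := fun Γ x e1 e2 => by
    conv_rhs => rw [← e2, ← e1, ← ap_mul, ← ap_mul, mul_inv_cancel_left, mul_assoc, ap_mul]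
  refine ⟨by rw [← k1, Ga_mul α α], ?_⟩
  rw [← k _ _ h4 h5, ← Ga_mul, ← k2, k _ _ (by rw [Ga_mul α α, h2, h4]) (by rw [Ga_mul α α, h3, h5]), k2, k _ _ h4 h5]

variable [Fintype G]

/-- `μ` is a character of `K` with values `±1` -/
structure Sg (K : Subgroup G) (μ : G → F) : Prop where
  ne : (Nat.card K : F) ≠ 0
  mul : ∀ a ∈ K, ∀ b ∈ K, μ (a * b) = μ a * μ b
  sq : ∀ a ∈ K, μ a * μ a = 1

theorem Sg.mono {K L : Subgroup G} {μ : G → F} (h : Sg K μ) (hL : L ≤ K) : Sg L μ :=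
  ⟨fun e => h.ne (by obtain ⟨c, hc⟩ := card_dvd_of_le hL; rw [hc, Nat.cast_mul, e, zero_mul]),
    fun a ha b hb => h.mul a (hL ha) b (hL hb), fun a ha => h.sq a (hL ha)⟩

theorem Sg.mul' {K : Subgroup G} {μ ν : G → F} (h : Sg K μ) (h' : Sg K ν) : Sg K (μ * ν) :=
  ⟨h.ne, fun a ha b hb => by simp only [Pi.mul_apply, h.mul a ha b hb, h'.mul a ha b hb]; ring,
    fun a ha => by linear_combination (norm := (simp only [Pi.mul_apply]; ring1)) ν a * ν a * h.sq a ha + h'.sq a ha⟩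

theorem sum_const' (K : Subgroup G) (c : F) : ∑ g, (if g ∈ K then c else 0) = Nat.card K * c := by
  rw [← sum_filter, sum_const, nsmul_eq_mul, Nat.card_eq_fintype_card, Fintype.card_subtype]

variable [NeZero (2 : F)]

theorem Sg.sum_zero {K : Subgroup G} {μ : G → F} (h : Sg K μ) {a : G} (ha : a ∈ K) (h1 : μ a = -1) :
    ∑ g, (if g ∈ K then μ g else 0) = 0 := by
  have := Equiv.sum_comp (Equiv.mulLeft a) fun g => if g ∈ K then μ g else 0
  rw [sum_congr rfl (g := fun g => -if g ∈ K then μ g else 0) fun g _ => by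
    by_cases hg : g ∈ K <;> simp [hg, K.mul_mem_cancel_left ha, h.mul a ha, h1], sum_neg_distrib] at this
  exact (mul_eq_zero.1 (by linear_combination -this)).resolve_left two_ne_zero

variable (ρ : G →* End F V)

noncomputable def ev (c : G → F) : End F V := ∑ g, c g • ρ g

/-- the projector onto the `μ`-weight space of `K` -/
noncomputable def pr (K : Subgroup G) (μ : G → F) : End F V := ev ρ fun g => if g ∈ K then μ g / Nat.card K else 0

theorem ev_add (c d : G → F) : ev ρ c + ev ρ d = ev ρ (c + d) := by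
  simp [ev, add_smul, sum_add_distrib]

theorem ev_sum {ι : Type*} (s : Finset ι) (c : ι → G → F) :
    ∑ i ∈ s, ev ρ (c i) = ev ρ fun g => ∑ i ∈ s, c i g := by
  simp only [ev, sum_smul]; exact sum_comm

theorem pr_congr {K : Subgroup G} {μ ν : G → F} (h : ∀ a ∈ K, μ a = ν a) : pr ρ K μ = pr ρ K ν :=
  congrArg (ev ρ) (funext fun g => by by_cases hg : g ∈ K <;> simp [hg, h])

theorem pr_mul_eq {K : Subgroup G} {μ : G → F} (h : Sg K μ) {x : End F V} (hx : ∀ a ∈ K, ρ a * x = μ a • x) :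
    pr ρ K μ * x = x := by
  rw [pr, ev, sum_mul, sum_congr rfl (g := fun g => (if g ∈ K then (Nat.card K : F)⁻¹ else 0) • x) fun g _ => by
    by_cases hg : g ∈ K
    · rw [smul_mul_assoc, hx g hg, smul_smul, if_pos hg, if_pos hg, div_mul_eq_mul_div, h.sq g hg, one_div]
    · simp [hg], ← sum_smul, sum_const', mul_inv_cancel₀ h.ne, one_smul]

theorem Ga_pr (h : G) {K L : Subgroup G} {μ ν : G → F} (h1 : ∀ k, h * k * h⁻¹ ∈ L ↔ k ∈ K)
    (h2 : ∀ k ∈ K, ν (h * k * h⁻¹) = μ k) : Ga ρ ρ h (pr ρ K μ) = pr ρ L ν := by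
  have : Nat.card K = Nat.card L := Nat.card_congr ((MulAut.conj h).toEquiv.subtypeEquiv fun k => (h1 k).symm)
  rw [pr, pr, ev, ev, map_sum, ← Equiv.sum_comp (MulAut.conj h).toEquiv fun k => (_ : F) • ρ k]
  refine sum_congr rfl fun k _ => ?_
  rw [map_smul, Ga_self, this]
  change _ = (if h * k * h⁻¹ ∈ L then ν (h * k * h⁻¹) / _ else 0) • ρ (h * k * h⁻¹)
  by_cases hk : k ∈ K <;> simp only [h1, hk, if_true, if_false, h2]

theorem Sg.mul_pr {K : Subgroup G} {μ : G → F} (h : Sg K μ) {a : G} (ha : a ∈ K) :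
    ρ a * pr ρ K μ = μ a • pr ρ K μ := by
  rw [pr, ev, mul_sum, smul_sum, ← Equiv.sum_comp (Equiv.mulLeft a) fun g => μ a • _ • ρ g]
  refine sum_congr rfl fun g _ => ?_
  rw [Equiv.coe_mulLeft, smul_smul, K.mul_mem_cancel_left ha, mul_smul_comm, map_mul]
  split_ifs with hg
  · rw [h.mul a ha g hg, ← mul_div_assoc, ← mul_assoc, h.sq a ha, one_mul]
  · rw [mul_zero]

theorem Sg.pr_mul {K : Subgroup G} {μ : G → F} (h : Sg K μ) {a : G} (ha : a ∈ K) :
    pr ρ K μ * ρ a = μ a • pr ρ K μ := by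
  rw [← h.mul_pr ρ ha]
  refine (Ga_eq.1 (Ga_pr ρ a (fun k => by rw [K.mul_mem_cancel_right (inv_mem ha), K.mul_mem_cancel_left ha])
    fun k hk => ?_)).symm
  have := h.mul _ (mul_mem (mul_mem ha hk) (inv_mem ha)) a ha
  rw [inv_mul_cancel_right, h.mul a ha k hk] at this
  linear_combination -μ a * this + (μ k - μ (a * k * a⁻¹)) * h.sq a ha

theorem Sg.idem {K : Subgroup G} {μ : G → F} (h : Sg K μ) : pr ρ K μ * pr ρ K μ = pr ρ K μ :=
  pr_mul_eq ρ h fun _ => h.mul_pr ρ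

theorem orth {x y a : End F V} {c d : F} (h1 : x * a = c • x) (h2 : a * y = d • y) (e : c ≠ d) : x * y = 0 := by
  have := mul_assoc x a y
  rw [h1, h2, smul_mul_assoc, mul_smul_comm, ← sub_eq_zero, ← sub_smul, smul_eq_zero] at this
  exact this.resolve_left (sub_ne_zero.2 e)

theorem Sg.orth {K L : Subgroup G} {μ ν : G → F} (h : Sg K μ) (h' : Sg L ν) {a : G} (ha : a ∈ K) (ha' : a ∈ L)
    (e : μ a ≠ ν a) : pr ρ K μ * pr ρ L ν = 0 := BR.orth (h.pr_mul ρ ha) (h'.mul_pr ρ ha') e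

omit ρ in
theorem pr_comm {K : Subgroup G} {μ : G → F} {φ : End F V} (h : ∀ a ∈ K, Ga α β a φ = φ) :
    pr β K μ * φ = φ * pr α K μ := by
  rw [pr, pr, ev, ev, sum_mul, mul_sum]
  refine sum_congr rfl fun g _ => ?_
  by_cases hg : g ∈ K
  · rw [smul_mul_assoc, mul_smul_comm, Ga_eq.1 (h g hg)]
  · simp [hg]

variable (F) in
noncomputable def sg (t a : G) : F := if t * a = a * t then 1 else -1

theorem sg_pos {t a : G} (h : t * a = a * t) : sg F t a = 1 := if_pos h
theorem sg_neg {t a : G} (h : t * a ≠ a * t) : sg F t a = -1 := if_neg h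
theorem sg_comm (t a : G) : sg F t a = sg F a t := by simp only [sg, eq_comm]
theorem sg_one (a : G) : sg F 1 a = 1 := sg_pos (by simp)
theorem sg_conj (h t a : G) : sg F (h * t * h⁻¹) (h * a * h⁻¹) = sg F t a := by
  simp only [sg, conj_mul, mul_left_inj, mul_right_inj]
theorem neg_one_ne : (-1 : F) ≠ 1 := fun e => two_ne_zero (by linear_combination -e : (2 : F) = 0)
theorem sg_eq_one {t a : G} : sg F t a = 1 ↔ t * a = a * t :=
  ⟨fun e => by_contra fun h => neg_one_ne ((sg_neg h).symm.trans e), sg_pos⟩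

theorem lx_mul {Q : Subgroup G} {z t a b : G} (h : LX Q z) (ht : t ∈ Q) (ha : a ∈ Q) (hb : b ∈ Q) :
    sg F t (a * b) = sg F t a * sg F t b := by
  have e : ∀ a, t * a = a * t ↔ a * t * a⁻¹ = t := fun a => by rw [mul_inv_eq_iff_eq_mul, eq_comm]
  have n : z * t ≠ t := by simpa using h.ne
  have k : a * b * t * (a * b)⁻¹ = a * (b * t * b⁻¹) * a⁻¹ := by group
  have k2 : a * (z * t) * a⁻¹ = z * (a * t * a⁻¹) := by rw [← mul_assoc, h.cen a ha]; group
  have k3 : z * (z * t) = t := by rw [← mul_assoc, h.sq, one_mul]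
  simp only [sg, e, k]
  rcases h.comm a ha t ht with e1 | e1 <;> rcases h.comm b hb t ht with e2 | e2 <;> simp [e1, e2, k2, k3, n]

theorem lx_sg {Q : Subgroup G} {z t : G} {n : ℕ} (h : LX Q z) (hc : Nat.card Q = 2 ^ n) (ht : t ∈ Q) :
    Sg Q (sg F t) :=
  ⟨by rw [hc, Nat.cast_pow]; exact pow_ne_zero _ two_ne_zero, fun a ha b hb => lx_mul h ht ha hb,
    fun a _ => by unfold sg; split_ifs <;> simp⟩

theorem lx_norm {Q : Subgroup G} {z c : G} (h : LX Q z) (hc : c * z = z * c) (k : G) : c * k * c⁻¹ ∈ Q ↔ k ∈ Q :=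
  ⟨fun hk => by simpa [mul_assoc] using h.norm c⁻¹ (Commute.inv_left hc) _ hk, h.norm c hc k⟩

theorem sum_pr {Q T K : Subgroup G} {z : G} {n : ℕ} (h : LX Q z) (hc : Nat.card Q = 2 ^ n) (hT : T ≤ Q) (hK : K ≤ Q)
    (μ : G → F) : ∑ t with t ∈ T, pr ρ K (μ * sg F t) =
      ev ρ fun g => if g ∈ K ⊓ centralizer T then Nat.card T / Nat.card K * μ g else 0 := by
  simp only [pr]
  rw [ev_sum]
  refine congrArg (ev ρ) (funext fun g => ?_)
  by_cases hg : g ∈ K
  · simp only [hg, if_true, ← sum_div, Pi.mul_apply, ← mul_sum, sum_filter, Subgroup.mem_inf, true_and,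
      mem_centralizer_iff, SetLike.mem_coe]
    split_ifs with h1
    · rw [sum_congr rfl (g := fun t => if t ∈ T then (1 : F) else 0) fun t _ => by
        split_ifs with ht; exacts [sg_pos (h1 t ht), rfl], sum_const']
      ring
    · push Not at h1
      obtain ⟨t, ht, e⟩ := h1
      simp only [sg_comm _ g]
      rw [((lx_sg h hc (hK hg)).mono hT).sum_zero ht (sg_neg e.symm), mul_zero, zero_div]
  · simp [hg]

theorem pr_half {Q : Subgroup G} {s z u : G} {n : ℕ} (h : LX Q s) (hc : Nat.card Q = 2 ^ n) (hz : z ∈ Q) (h1 : z ≠ 1)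
    (h2 : z ≠ s) (hu : u ∈ Q) :
    pr ρ (Q ⊓ centralizer {z}) (sg F u) = pr ρ Q (sg F u) + pr ρ Q (sg F (u * z)) := by
  have := ((lx_sg (F := F) h hc hu).mono (inf_le_left (b := centralizer {z}))).ne
  have := two_ne_zero (α := F)
  rw [pr, pr, pr, ev_add, ← (ex_of_lx h).card_cent1 hz h1 h2]
  refine congrArg (ev ρ) (funext fun g => ?_)
  by_cases hg : g ∈ Q
  · simp only [Pi.add_apply, Subgroup.mem_inf, hg, true_and, if_true, mem_centralizer_singleton_iff, sg_comm _ g,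
      lx_mul h hg hu hz]
    split_ifs with e
    · rw [sg_pos e]; push_cast; field_simp; ring
    · rw [sg_neg e]; ring
  · simp [hg]

end Cfsg.Agent.H51.BR
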