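import Cfsg.Agent.H51.PuigNormal
import Cfsg.Agent.H51.PLength

/-!
Bender–Glauberman Theorems 6.1 and 6.2 for subgroups of an ambient finite group.
-/

set_option autoImplicit false

namespace Cfsg.Agent.H51

open Cfsg.Agent.H49

universe u

variable {G : Type u} [Group G] [Finite G] {p : ℕ}

/-- BG 6.1: an abelian subgroup of `M` normalised by a Sylow `p`-subgroup lies in `O_{p',p}(M)`. -/
theorem odd_p_abelian_constrained (hp : p.Prime) {M S A : Subgroup G} (hodd : Odd (Nat.card M))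
    (hs : Group.IsSolvable M) (hS : IsSylowOf p S M) (hAM : A ≤ M) (hA : IsMulCommutative A)
    (hSA : S ≤ 𝒩(A)) : A ≤ pPrimePCoreOf p M := by
  have := Fact.mk hp
  obtain ⟨Q, rfl⟩ := exists_sylow_of hp hS
  obtain ⟨B, rfl⟩ : ∃ B : Subgroup M, B.map M.subtype = A :=
    ⟨A.subgroupOf M, Subgroup.map_subgroupOf_eq_of_le hAM⟩
  refine Subgroup.map_mono (abelian_le_pPrimePCore hodd Q ?_ ?_)
  · refine ⟨⟨fun a b => Subtype.ext (Subtype.ext ?_)⟩⟩
    exact congrArg (fun z : B.map M.subtype => (z : G))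
      (hA.1.1 ⟨a.1.1, Subgroup.mem_map_of_mem _ a.2⟩ ⟨b.1.1, Subgroup.mem_map_of_mem _ b.2⟩)
  · intro x hx
    have h := hSA (Subgroup.mem_map_of_mem M.subtype hx)
    rw [Subgroup.mem_normalizer_iff] at h ⊢
    intro y
    have h2 := h y
    have e : M.subtype x * (y : G) * (M.subtype x)⁻¹ = M.subtype (x * y * x⁻¹) := by simp
    rw [e] at h2
    change M.subtype y ∈ _ ↔ _ at h2
    simpa only [SetLike.mem_coe, Subgroup.mem_map_iff_mem M.subtype_injective] using h2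

/-- BG 6.2 (second statement): `O_{p'}(M) Z(L(S))` is normal in `M`. -/
theorem puig_center_pPrimeCore_normal (hp : p.Prime) {M S : Subgroup G} (hodd : Odd (Nat.card M))
    (hs : Group.IsSolvable M) (hS : IsSylowOf p S M) :
    M ≤ 𝒩(piCoreOf {p}ᶜ M ⊔ (puigOf S ⊓ 𝒞(puigOf S))) := by
  have := Fact.mk hp
  obtain ⟨Q, rfl⟩ := exists_sylow_of hp hS
  have h := center_puigOf_sup_pPrimeCore_normal hodd Q
  have h2 := norm_map_subtype (M := M) (pPrimeCore p M ⊔ (puigOf (Q : Subgroup M) ⊓ 𝒞(puigOf (Q : Subgroup M))))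
  rwa [Subgroup.map_sup, pPrimeCore_map_subtype hp, map_center_of_injOn _ (by simp),
    puigOf_map M.subtype_injective] at h2

/-- BG 6.2 with `O_{p'}(M) = 1`: `Z(L(S))` is normal in `M`. -/
theorem puig_center_normal (hp : p.Prime) {M S : Subgroup G} (hodd : Odd (Nat.card M))
    (hs : Group.IsSolvable M) (hS : IsSylowOf p S M) (hO : piCoreOf {p}ᶜ M = ⊥) :
    M ≤ 𝒩(puigOf S ⊓ 𝒞(puigOf S)) := by
  have h := puig_center_pPrimeCore_normal hp hodd hs hS
  rwa [hO, bot_sup_eq] at h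

/-- BG 6.2 (first statement): `M = O_{p'}(M) N_M(Z(L(S)))`. -/
theorem puig_factorisation (hp : p.Prime) {M S : Subgroup G} (hodd : Odd (Nat.card M))
    (hs : Group.IsSolvable M) (hS : IsSylowOf p S M) :
    IsProd (piCoreOf {p}ᶜ M) (M ⊓ 𝒩(puigOf S ⊓ 𝒞(puigOf S))) M := by
  have := Fact.mk hp
  have hn := puig_center_pPrimeCore_normal hp hodd hs hS
  set Z := puigOf S ⊓ 𝒞(puigOf S) with hZ
  have hZS : Z ≤ S := inf_le_left.trans (puigOf_le _)
  have hZM : Z ≤ M := hZS.trans hS.le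
  have hK := piCoreOf_le {p}ᶜ M
  have hZp : IsPi {p} Z := IsPi.of_le hS.2.1 hZS
  have hsyl : IsSylowOf p Z (piCoreOf {p}ᶜ M ⊔ Z) :=
    hall_sup_right (piCoreOf_pi _ _) hZp (Or.inr (hZM.trans (le_norm_piCoreOf _ _)))
  have hF := frattini_arg (sup_le hK hZM) hn hsyl
  have : piCoreOf {p}ᶜ M ⊔ (M ⊓ 𝒩(Z)) = M := by
    refine le_antisymm (sup_le hK inf_le_left) ?_
    conv_lhs => rw [← hF.sup_eq]
    exact sup_le (sup_le_sup_left (le_inf hZM Subgroup.le_normalizer) _) le_sup_right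
  conv => arg 3; rw [← this]
  exact isProd_sup_of_norm_left (inf_le_left.trans (le_norm_piCoreOf _ _))

end Cfsg.Agent.H51
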