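import Cfsg.Agent.H51.CN2
import Cfsg.Agent.H51.PuigRel
import Cfsg.Agent.H48.Coprime
import Cfsg.Agent.H3.Fusion
import Cfsg.Agent.S0035

/-!
Minimal simple CN-groups of odd order: maximal nilpotent subgroups are TI Hall subgroups whose
normalisers are the maximal subgroups.
-/

set_option autoImplicit false
set_option linter.unusedSectionVars false

namespace Cfsg.Agent.H51

open Cfsg.Agent.H49 Subgroup

universe u

variable {G : Type u} [Group G] [Finite G]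

/-- `Z(L(T))` -/
def zPuig (T : Subgroup G) : Subgroup G := puigOf T ⊓ 𝒞(puigOf T)

theorem zPuig_le (T : Subgroup G) : zPuig T ≤ T := inf_le_left.trans (puigOf_le T)

theorem cj_zPuig (g : G) (T : Subgroup G) : cj g (zPuig T) = zPuig (cj g T) := by
  rw [zPuig, cj_inf, cj_centralizer, cj_puigOf, zPuig]

theorem norm_le_norm_zPuig (T : Subgroup G) : 𝒩(T) ≤ 𝒩(zPuig T) :=
  norm_inf (norm_puigOf T) (norm_cent (norm_puigOf T))

theorem index_lt_of_lt {H K : Subgroup G} (h : H < K) : K.index < H.index := by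
  have h1 := card_lt_of_lt h
  have h2 := H.card_mul_index.trans K.card_mul_index.symm
  by_contra h3
  have : Nat.card H * H.index < Nat.card K * K.index :=
    Nat.mul_lt_mul_of_lt_of_le h1 (not_lt.mp h3) (Nat.pos_of_ne_zero index_ne_zero_of_finite)
  omega

section CharP

variable (hG : IsMinSimpleOddOrder G) {p : ℕ} (hp : p.Prime)
  (h0 : ∀ x : G, x ≠ 1 → IsPiElt {p} x → ∀ Y ≤ 𝒞[x], IsPi {p}ᶜ Y → Y = ⊥)
include hG hp h0

omit hG hp in
theorem pPrimeCore_local_eq_bot {N D : Subgroup G} (hD : D ≠ ⊥) (hDp : IsPi {p} D) (hDN : D ≤ N)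
    (hn : N ≤ 𝒩(D)) : piCoreOf {p}ᶜ N = ⊥ := by
  obtain ⟨x, hx, hx1⟩ := ne_bot_iff_exists.mp hD
  exact h0 x hx1 (hDp.elt hx) _ ((cent_symm (piCoreOf_cent_compl {p} N)).trans
    (cent_le_cent1 (le_piCoreOf hDN hn hDp hx))) (piCoreOf_pi _ _)

theorem local_le_norm_zPuig (n : ℕ) : ∀ T N D : Subgroup G, IsSylowOf p T N → T.index = n →
    D ≠ ⊥ → IsPi {p} D → D ≤ N → N ≤ 𝒩(D) → ∃ S, IsSylowOf p S ⊤ ∧ N ≤ 𝒩(zPuig S) := by
  induction n using Nat.strong_induction_on with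
  | _ n ih =>
    intro T N D hT hn hD hDp hDN hN
    have hNt : N ≠ ⊤ := ne_top_anti hN
      (H48.ms_norm_ne_top hG hD (H48.ms_ne_top_of_nil hG hDp.nilpotent))
    have h1 : N ≤ 𝒩(zPuig T) := puig_center_normal hp (H48.ms_odd hG N) (H48.ms_sol hG hNt) hT
      (pPrimeCore_local_eq_bot h0 hD hDp hDN hN)
    have hT1 : T ≠ ⊥ := ne_bot_mono (hT.normal_le hDN hN hDp) hD
    obtain ⟨T₁, hT₁, hle⟩ := exists_sylowOf_ge hT.pi (hT.le.trans h1)
    rcases hle.eq_or_lt with rfl | hlt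
    · exact ⟨T, sylowOf_of_norm_le hT₁ le_top (inf_le_right.trans (norm_le_norm_zPuig T)), h1⟩
    · obtain ⟨S, hS, h2⟩ := ih _ (hn ▸ index_lt_of_lt hlt) T₁ _ (zPuig T) hT₁ rfl
        (center_puigOf_ne_bot hT.pi.nilpotent hT1) (hT.pi.of_le (zPuig_le T)) le_normalizer le_rfl
      exact ⟨S, hS, h1.trans h2⟩

omit hG hp h0 in
theorem zPuig_eq_of_le {S S' : Subgroup G} (hS : IsSylowOf p S ⊤) (hS' : IsSylowOf p S' ⊤)
    (h : S' ≤ 𝒩(zPuig S)) : zPuig S' = zPuig S := by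
  have h1 : S ≤ 𝒩(zPuig S) := le_normalizer.trans (norm_le_norm_zPuig S)
  obtain ⟨g, hg, rfl⟩ := sylowOf_conj (hS.sub h1 le_top) (hS'.sub h le_top)
  rw [← cj_zPuig, cj_eq_of_mem_norm hg]

theorem sylow_le_norm_zPuig {S : Subgroup G} (hS : IsSylowOf p S ⊤) (n : ℕ) :
    ∀ S₁ S₂ : Subgroup G, IsSylowOf p S₁ ⊤ → IsSylowOf p S₂ ⊤ → (S₁ ⊓ S₂).index = n →
      S₁ ≤ 𝒩(zPuig S) → S₁ ⊓ S₂ ≠ ⊥ → S₂ ≤ 𝒩(zPuig S) := by
  induction n using Nat.strong_induction_on with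
  | _ n ih =>
    intro S₁ S₂ h₁ h₂ hn hM hD
    set D := S₁ ⊓ S₂ with hDdef
    rcases (inf_le_left : D ≤ S₁).eq_or_lt with e | hlt₁
    · exact h₁.eq_of_le (inf_eq_left.mp e) le_top h₂.pi ▸ hM
    rcases (inf_le_right : D ≤ S₂).eq_or_lt with e | hlt₂
    · exact (inf_eq_right.mp e).trans hM
    have key : ∀ {R X : Subgroup G}, IsSylowOf p R ⊤ → IsPi {p} X → X ≤ 𝒩(zPuig R) →
        ∃ R', IsSylowOf p R' ⊤ ∧ X ≤ R' ∧ R' ≤ 𝒩(zPuig R) := by
      intro R X hR hX hXR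
      have h1 : R ≤ 𝒩(zPuig R) := le_normalizer.trans (norm_le_norm_zPuig R)
      obtain ⟨g, hg, h2⟩ := sylowOf_Jsub (hR.sub h1 le_top) hXR hX
      exact ⟨_, hR.cj_of_mem (mem_top g), h2, cj_le_of_mem h1 hg⟩
    obtain ⟨T, hT⟩ := exists_sylowOf p 𝒩(D)
    obtain ⟨S₃, h₃, hN⟩ := local_le_norm_zPuig hG hp h0 _ T _ D hT rfl hD (h₁.pi.inf_left _)
      le_normalizer le_rfl
    obtain ⟨S₄, h₄, h4, h4'⟩ := key h₃ (h₁.pi.inf_left 𝒩(D)) (inf_le_right.trans hN)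
    have l1 : D < S₁ ⊓ S₄ :=
      (lt_inf_norm_of_nilpotent h₁.pi.nilpotent hlt₁).trans_le (le_inf inf_le_left h4)
    have h5 := ih _ (hn ▸ index_lt_of_lt l1) S₁ S₄ h₁ h₄ rfl hM (ne_bot_mono l1.le hD)
    rw [← zPuig_eq_of_le h₃ h₄ h4', zPuig_eq_of_le hS h₄ h5] at hN
    obtain ⟨S₅, h₅, h6, h6'⟩ := key hS (h₂.pi.inf_left 𝒩(D)) (inf_le_right.trans hN)
    have l2 : D < S₅ ⊓ S₂ :=
      (lt_inf_norm_of_nilpotent h₂.pi.nilpotent hlt₂).trans_le (le_inf h6 inf_le_left)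
    exact ih _ (hn ▸ index_lt_of_lt l2) S₅ S₂ h₅ h₂ rfl h6' (ne_bot_mono l2.le hD)

/-- `N(Z(L(S)))` is strongly `p`-embedded. -/
theorem mem_norm_zPuig {S : Subgroup G} (hS : IsSylowOf p S ⊤) {g : G} (h : S ⊓ cj g S ≠ ⊥) :
    g ∈ 𝒩(zPuig S) := by
  have h1 := hS.cj_of_mem (mem_top g)
  rw [mem_norm_iff_cj, cj_zPuig]
  exact zPuig_eq_of_le hS h1 (sylow_le_norm_zPuig hG hp h0 hS _ S _ hS h1 rfl
    (le_normalizer.trans (norm_le_norm_zPuig S)) h)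

theorem cn_sylow_TI (hCN : IsCNGroup G) {S : Subgroup G} (hS : IsSylowOf p S ⊤) {g : G}
    (h : S ⊓ cj g S ≠ ⊥) : cj g S = S := by
  have := Fact.mk hp
  rw [← mem_norm_iff_cj]
  suffices 𝒩(zPuig S) ≤ 𝒩(S) from this (mem_norm_zPuig hG hp h0 hS h)
  have hS1 : S ≠ ⊥ := ne_bot_mono inf_le_left h
  have hZ := center_puigOf_ne_bot hS.pi.nilpotent hS1
  have hZp := hS.pi.of_le (zPuig_le S)
  set M := 𝒩(zPuig S) with hM
  have hSM : S ≤ M := le_normalizer.trans (norm_le_norm_zPuig S)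
  have hsol : Group.IsSolvable M :=
    H48.ms_sol hG (H48.ms_norm_ne_top hG hZ (H48.ms_ne_top_of_nil hG hZp.nilpotent))
  by_contra hn
  obtain ⟨-, A, -, -, -, -, hN, hNt, ⟨k, hk⟩, -⟩ := cn_three_step (isCN_subgroup hCN M) hp (by
      rw [← Subgroup.map_eq_bot_iff_of_injective _ M.subtype_injective, piCoreOf_map_subtype,
        map_subtype_top]
      exact pPrimeCore_local_eq_bot h0 hZ hZp le_normalizer le_rfl) (by
      intro h1
      rw [IsSylowOf, ← hall_map_subtype_top, piCoreOf_map_subtype, map_subtype_top] at h1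
      exact hn (h1.eq_of_normal (le_norm_piCoreOf _ _) (hS.sub hSM le_top) ▸ le_norm_piCoreOf _ _))
  obtain ⟨P, rfl⟩ := exists_sylow_of_top hp hS
  have h2 := H3.inf_pResidual_eq_of_controls_fusion P hSM (fun x hx y hy => by
    by_cases hx1 : x = 1
    · exact ⟨1, one_mem _, by simp [hx1]⟩
    · refine ⟨y, mem_norm_zPuig hG hp h0 hS (ne_bot_iff_exists.mpr ⟨_, ⟨hy, conj_mem_cj.mpr hx⟩, ?_⟩),
        rfl⟩
      simpa using hx1)
  have h3 : pResidual p G = ⊤ := by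
    have := hG.2.1
    refine (Subgroup.Normal.eq_bot_or_eq_top inferInstance).resolve_left fun h3 => ?_
    have := (H3.pResidual_eq_bot_iff.mp h3).isNilpotent
    exact H48.ms_not_sol hG inferInstance
  rw [h3, inf_top_eq] at h2
  have h4 : (P : Subgroup G).subgroupOf M ≤ pCore p M ⊔ A := by
    refine le_trans ?_ (H3.pResidual_le_of_index_eq_pow _ hk)
    rw [← map_le_map_iff_of_injective M.subtype_injective, map_subgroupOf_eq_of_le hSM]
    exact h2.le.trans inf_le_right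
  have h5 := ((hall_subgroupOf_top hSM).mpr (hS.sub hSM le_top)).index_of_le h4
  rw [relIndex_top_right, hk] at h5
  exact hNt (index_eq_one.mp (hk.trans ((isPiNat_singleton_pow hp k).eq_one h5)))

end CharP

section MinSimple

variable (hG : IsMinSimpleOddOrder G) (hCN : IsCNGroup G)
include hG hCN

theorem MaxNil.ti {H : Subgroup G} (h : MaxNil H) (g : G) (hg : H49.cj g H ≠ H) :
    H ⊓ H49.cj g H = ⊥ := by
  by_contra hne
  by_cases hp : ∀ p : ℕ, p.Prime → ¬ IsPi {p} H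
  · exact hg (h.eq_of_inf hCN (h.cj g) hp hne).symm
  push Not at hp
  obtain ⟨p, hp, hH⟩ := hp
  obtain ⟨S, hS, hle⟩ := h.exists_sylow_le hCN hp (hH.dvd_card (ne_bot_mono inf_le_left hne))
  obtain rfl := hS.eq_of_le hle le_top hH
  refine hg (cn_sylow_TI hG hp (fun x hx1 hx Y hY hYp => ?_) hCN hS hne)
  obtain ⟨k, -, hk⟩ := sylowOf_Jsub hS le_top (isPi_zpowers.mpr hx)
  exact ((hH.cj k).of_le ((h.cj k).le_of_cent hCN (zpowers_le.mp hk) hx1 hx hY hYp)).eq_bot hYp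

theorem MaxNil.cent1_le' {H : Subgroup G} (h : MaxNil H) {x : G} (hx : x ∈ H) (hx1 : x ≠ 1) :
    𝒞[x] ≤ H := h.cent1_le hCN (h.ti hG hCN) hx hx1

theorem MaxNil.eq_of_inf' {H K : Subgroup G} (hH : MaxNil H) (hK : MaxNil K) (h : H ⊓ K ≠ ⊥) :
    H = K := by
  obtain ⟨x, hx, hx1⟩ := ne_bot_iff_exists.mp h
  obtain ⟨z, hz, hz1⟩ := ne_bot_iff_exists.mp
    (center_ne_bot_of_nilpotent hH.1 (ne_bot_mono inf_le_left h))
  have h1 : z ∈ K := hK.cent1_le' hG hCN hx.2 hx1 (cent_le_cent1 hx.1 hz.2)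
  exact (hH.2 K hK.1 ((le_cent1_iff.mpr hz.2).trans (hK.cent1_le' hG hCN h1 hz1))).symm

theorem MaxNil.frob {H : Subgroup G} (h : MaxNil H) : ∃ E, IsFrob H E 𝒩(H) ∧ IsCyclic E := by
  have := hG.2.1
  have h1 := h.ne_bot
  obtain ⟨E, hE⟩ := exists_compl_of_coprime le_normalizer le_rfl
    ((h.hall hCN).sub le_normalizer le_top).coprime
  have hr : Semiregular H E := by
    intro e he he1
    by_contra hne
    obtain ⟨x, hx, hx1⟩ := ne_bot_iff_exists.mp hne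
    exact he1 (mem_bot.mp (hE.2.1 ▸ ⟨h.cent1_le' hG hCN hx.1 hx1 (mem_cent1_comm.mp hx.2), he⟩))
  refine ⟨E, ⟨hE, h1, ?_, hr⟩, cn_cyclic_of_semiregular hCN h1 hE.2.2 hr (H48.ms_odd hG E)⟩
  rintro rfl
  have e := hE.1
  rw [sup_bot_eq] at e
  have ht := H48.ms_ne_top_of_nil hG h.1
  obtain ⟨N, -, hN, hc⟩ := S0035.result H ⟨h1, ht, fun g hg => by
    rw [← cj_eq_smul]
    exact h.ti hG hCN g fun e' => hg (e ▸ mem_norm_iff_cj.mpr e')⟩
  rcases hN.eq_bot_or_eq_top with rfl | rfl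
  · exact ht (isComplement'_bot_left.mp hc)
  · exact h1 (isComplement'_top_left.mp hc)

theorem MaxNil.der_norm_le {H : Subgroup G} (h : MaxNil H) : ⁅𝒩(H), 𝒩(H)⁆ ≤ H := by
  obtain ⟨E, hE, hc⟩ := h.frob hG hCN
  have := der_le_sup_der hE.1.isProd hE.1.2.2
  rwa [H49.commutator_eq_bot_iff.mpr (abelian_iff.mp (abelian_of_cyclic hc)), sup_bot_eq] at this

theorem exists_maxNil_norm {M : Subgroup G} (h1 : M ≠ ⊥) (h2 : M ≠ ⊤) :
    ∃ K, MaxNil K ∧ M ≤ 𝒩(K) := by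
  obtain ⟨K, hK, hle⟩ := exists_maxNil_ge (fittingOf_nil M)
  refine ⟨K, hK, fun m hm => ?_⟩
  rw [mem_norm_iff_cj]
  by_contra hne
  refine fittingOf_ne_bot (H48.ms_sol hG h2) h1 (eq_bot_iff.mpr (hK.ti hG hCN m hne ▸ ?_))
  refine le_inf hle ?_
  rw [← cj_eq_of_mem_norm (le_norm_fittingOf M hm)]
  exact cj_mono m hle

theorem exists_maxNil_of_coatom {M : Subgroup G} (hM : IsCoatom M) :
    ∃ K, MaxNil K ∧ 𝒩(K) = M := by
  have := hG.2.1
  obtain ⟨K, hK, h⟩ := exists_maxNil_norm hG hCN (H48.ms_coatom_ne_bot hG hM) hM.1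
  exact ⟨K, hK, (hM.le_iff_eq (H48.ms_norm_ne_top hG hK.ne_bot
    (H48.ms_ne_top_of_nil hG hK.1))).mp h⟩

theorem MaxNil.coatom_norm {H : Subgroup G} (h : MaxNil H) : IsCoatom 𝒩(H) := by
  have := hG.2.1
  have h1 := h.ne_bot
  obtain ⟨M, hM, hle⟩ := H48.exists_coatom_ge
    (H48.ms_norm_ne_top hG h1 (H48.ms_ne_top_of_nil hG h.1))
  obtain ⟨K, hK, rfl⟩ := exists_maxNil_of_coatom hG hCN hM
  by_cases hHK : H ⊓ K = ⊥
  · exfalso
    have h2 : ⁅𝒩(H), H⁆ = ⊥ := eq_bot_iff.mpr (hHK ▸ le_inf (commutator_le_right_of_norm le_rfl)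
      ((commutator_mono hle (le_normalizer.trans hle)).trans (hK.der_norm_le hG hCN)))
    obtain ⟨E, hE, -⟩ := h.frob hG hCN
    obtain ⟨e, he, he1⟩ := ne_bot_iff_exists.mp hE.2.2.1
    exact he1 (Semiregular.eq_one_of_cent hE.2.2.2 h1 he
      (H49.commutator_eq_bot_iff.mp h2 (hE.1.right_le he)))
  · rwa [h.eq_of_inf' hG hCN hK hHK]

omit hG in
theorem MaxNil.fcore_norm {H : Subgroup G} (h : MaxNil H) : fittingHallOf 𝒩(H) = H :=
  h.2 _ (fcore_nil _) (fcore_max ((h.hall hCN).sub le_normalizer le_top).isHallOf le_rfl h.1)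

theorem MaxNil.conj_or_coprime {H K : Subgroup G} (hH : MaxNil H) (hK : MaxNil K) :
    (∃ g, K = H49.cj g H) ∨ (Nat.card H).Coprime (Nat.card K) := by
  by_contra hcon
  push Not at hcon
  obtain ⟨p, hp, h1, h2⟩ := Nat.Prime.not_coprime_iff_dvd.mp hcon.2
  obtain ⟨S, hS, hSH⟩ := hH.exists_sylow_le hCN hp h1
  obtain ⟨T, hT, hTK⟩ := hK.exists_sylow_le hCN hp h2
  obtain ⟨g, -, rfl⟩ := sylowOf_conj hS hT
  exact hcon.1 g (hK.eq_of_inf' hG hCN (hH.cj g) (ne_bot_mono (le_inf hTK (cj_mono g hSH))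
    (hT.ne_bot hp rfl (h2.trans (card_dvd_of_le le_top)))))

theorem der_nil_of_ne_top {M : Subgroup G} (h : M ≠ ⊤) : Group.IsNilpotent ↥⁅M, M⁆ := by
  by_cases h1 : M = ⊥
  · rw [h1, commutator_bot_left]; infer_instance
  obtain ⟨K, hK, hle⟩ := exists_maxNil_norm hG hCN h1 h
  exact nilpotent_of_le hK.1 ((der_mono hle).trans (hK.der_norm_le hG hCN))

end MinSimple

theorem not_three_step_of_der_nil (h : Group.IsNilpotent ↥⁅(⊤ : Subgroup G), (⊤ : Subgroup G)⁆) (p : ℕ) :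
    ¬ IsThreeStepGroup p G := by
  rintro ⟨hP1, A, hA1, -, -, hAp, hN, hNt, -, hr, hc⟩
  set π : Set ℕ := {r | r ∣ p} with hπ
  have hP : IsPi π (pCore p G) := by
    refine (piCoreOf_pi π ⊤).of_le (sSup_le fun N hN => le_piCoreOf le_top
      (normal_iff_top_le_norm.mp hN.1) (isPi_of_elt fun x hx r hr hd => ?_))
    obtain ⟨k, hk⟩ := hN.2 ⟨x, hx⟩
    exact hr.dvd_of_dvd_pow (hd.trans (orderOf_dvd_of_pow_eq_one (congrArg Subtype.val hk)))
  have hA : IsPi πᶜ A := fun r hr hd hrp =>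
    hr.one_lt.ne' (Nat.eq_one_of_dvd_coprimes hAp hd hrp)
  have hPn : (pCore p G).Normal := sSup_normal _ fun _ h => h.1
  set P := pCore p G
  set D := ⁅(⊤ : Subgroup G), ⊤⁆ ⊓ (P ⊔ A) with hD
  have hDn : D.Normal := inferInstance
  have hDnil : Group.IsNilpotent D := nilpotent_of_le h inf_le_left
  have hBn : ∀ L : Subgroup G, L ≤ 𝒩(piCoreOf πᶜ D) := fun L =>
    norm_piCoreOf _ le_normalizer_of_normal
  have hB : piCoreOf πᶜ D = ⊥ := by
    by_contra hne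
    obtain ⟨b, hb, hb1⟩ := ne_bot_iff_exists.mp hne
    have h1 : piCoreOf πᶜ D ≤ A := (hall_sup_right hP.compl_compl hA
      (Or.inr le_normalizer_of_normal)).normal_le ((piCoreOf_le _ _).trans inf_le_right) (hBn _)
      (piCoreOf_pi _ _)
    have h2 : P ≤ 𝒞(piCoreOf πᶜ D) :=
      hP.cent_of_norm (piCoreOf_pi _ _) (hBn _) le_normalizer_of_normal
    exact hP1 (eq_bot_iff.mpr (hr b (h1 hb) hb1 ▸ le_inf le_rfl (h2.trans (cent_le_cent1 hb))))
  have hDP : D ≤ P := by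
    have e := (nilpotent_isDp hDnil π).1
    rw [hB, sup_bot_eq] at e
    exact (hall_sup_left hP hA (Or.inr le_normalizer_of_normal)).le_of_normal
      le_normalizer_of_normal inf_le_right (e ▸ piCoreOf_pi _ _)
  obtain ⟨x, -, hx⟩ := SetLike.exists_of_lt (lt_top_iff_ne_top.mpr hNt)
  obtain ⟨a, ha, ha1⟩ := ne_bot_iff_exists.mp hA1
  refine hc x hx a ha ha1 (hDP ⟨commutator_mem_commutator (mem_top x) (mem_top a), ?_⟩)
  exact (P ⊔ A).mul_mem (hN.conj_mem a (mem_sup_right ha) x) ((P ⊔ A).inv_mem (mem_sup_right ha))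

end Cfsg.Agent.H51
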