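import Cfsg.Prelude.Def_CaseTheorems
import Cfsg.Agent.H49.Hall
import Cfsg.Agent.H48.Sec8a

/-!
Maximal local subgroups whose Fitting subgroup has at least two prime divisors.
-/

set_option autoImplicit false
set_option linter.unusedSectionVars false

namespace Cfsg.Agent.H51

open Cfsg.Agent.H49 Subgroup

universe u

variable {G : Type u} [Group G] [Finite G]

/-- the centre of `O_p(F(H))` -/
abbrev zF (H : Subgroup G) (p : ℕ) : Subgroup G :=
  piCoreOf {p} (fittingOf H) ⊓ 𝒞(piCoreOf {p} (fittingOf H))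

theorem zF_pi (H : Subgroup G) (p : ℕ) : IsPi {p} (zF H p) :=
  H48.isPi_of_le (piCoreOf_pi _ _) inf_le_left

theorem zF_le (H : Subgroup G) (p : ℕ) : zF H p ≤ fittingOf H :=
  inf_le_left.trans (piCoreOf_le _ _)

theorem le_norm_zF (H : Subgroup G) (p : ℕ) : H ≤ 𝒩(zF H p) :=
  norm_inf (norm_piCoreOf _ (le_norm_fittingOf H))
    (norm_cent (norm_piCoreOf _ (le_norm_fittingOf H)))

theorem zF_le_cent (H : Subgroup G) (p : ℕ) : zF H p ≤ 𝒞(fittingOf H) := by
  refine cent_symm ((H48.nil_le_pcore_sup {p} (fittingOf_nil H)).trans (sup_le ?_ ?_))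
  · exact cent_symm inf_le_right
  · exact cent_symm (inf_le_left.trans (piCoreOf_cent_compl _ _))

theorem zF_ne_bot {H : Subgroup G} {p : ℕ} (hp : p.Prime) (hd : p ∣ Nat.card (fittingOf H)) :
    zF H p ≠ ⊥ :=
  center_ne_bot_of_nilpotent (piCoreOf_pi _ _).nilpotent
    (H48.pcore_ne_bot_of_nil hp (fittingOf_nil H) hd)

theorem norm_zF {H : Subgroup G}
    (hHmax : ∀ L : Subgroup G, Cfsg.IsLocalSubgroup L → H ≤ L → L = H)
    {p : ℕ} (hp : p.Prime) (hd : p ∣ Nat.card (fittingOf H)) : 𝒩(zF H p) = H :=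
  hHmax _ ⟨p, zF H p, hp, (zF_pi H p).isPGroup hp, zF_ne_bot hp hd, rfl⟩ (le_norm_zF H p)

theorem maxLocal_triv {H M R D : Subgroup G} (hM : M ≤ fittingOf H)
    (hCM : fittingOf H ⊓ 𝒞(M) ≤ M) (hR : Group.IsSolvable R)
    (hXR : H ⊓ 𝒞(fittingOf H) ≤ 𝒩(R)) (hDR : D ≤ R) (hDH : D ≤ H)
    (hc : (Nat.card D).Coprime (Nat.card (fittingOf H))) (hMD : M ≤ 𝒩(D)) : D = ⊥ := by
  set F := fittingOf H with hF
  have hDF : D ≤ 𝒩(F) := hDH.trans (le_norm_fittingOf H)
  have h1 : ⁅D, M⁆ = ⊥ := by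
    rw [eq_bot_iff, ← H49.inf_eq_bot_of_coprime hc]
    exact le_inf (commutator_le_left_of_norm hMD)
      ((commutator_mono le_rfl hM).trans (commutator_le_right_of_norm hDF))
  have hDM : D ≤ 𝒞(M) := H49.commutator_eq_bot_iff.1 h1
  have hDC : D ≤ 𝒞(F) := by
    refine H48.coprime_nil_faithful_cent_stab (fittingOf_nil H) hDF hc ?_
    refine le_trans ?_ (hCM.trans (cent_symm hDM))
    exact inf_le_inf_left _ (cent_anti (le_inf hM (cent_symm hDM)))
  set X := H ⊓ 𝒞(F) with hX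
  have hHX : H ≤ 𝒩(X) := norm_inf le_normalizer (norm_cent (le_norm_fittingOf H))
  set S := R ⊓ X with hS
  have hXS : X ≤ 𝒩(S) := norm_inf hXR le_normalizer
  have hFS : fittingOf S ≤ F :=
    (fittingOf_le_of_normal inf_le_right hXS).trans (fittingOf_le_of_normal inf_le_left hHX)
  have hSF : S ≤ F := by
    refine le_trans ?_ ((cent_fittingOf_le (solvable_of_le hR inf_le_left)).trans hFS)
    exact le_inf le_rfl ((inf_le_right.trans inf_le_right).trans (cent_anti hFS))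
  have hDF' : D ≤ F := (le_inf hDR (le_inf hDH hDC)).trans hSF
  rw [eq_bot_iff, ← H49.inf_eq_bot_of_coprime hc]
  exact le_inf le_rfl hDF'

theorem maxLocal_le_core {H M R Y : Subgroup G}
    (hHmax : ∀ L : Subgroup G, Cfsg.IsLocalSubgroup L → H ≤ L → L = H)
    (hF2 : 2 ≤ (Nat.card (fittingOf H)).primeFactors.card) (hM : M ≤ fittingOf H)
    (hCM : fittingOf H ⊓ 𝒞(M) ≤ M) (hR : Group.IsSolvable R) (hMR : M ≤ 𝒩(R))
    (hXR : H ⊓ 𝒞(fittingOf H) ≤ 𝒩(R)) (hYR : Y ≤ R)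
    (hc : (Nat.card Y).Coprime (Nat.card (fittingOf H))) (hMY : M ≤ 𝒩(Y)) :
    Y ≤ piCoreOf (primesNotDvd (Nat.card (fittingOf H))) R := by
  set F := fittingOf H with hF
  have hZM : ∀ p, zF H p ≤ M := fun p =>
    (le_inf (zF_le H p) ((zF_le_cent H p).trans (cent_anti hM))).trans hCM
  have hMZ : ∀ p, M ≤ 𝒞(zF H p) := fun p => hM.trans (cent_symm (zF_le_cent H p))
  refine H48.le_pcore_primesNotDvd hYR fun p hp hd => ?_
  obtain ⟨r, hr, hrp⟩ := Finset.exists_mem_ne (s := (Nat.card F).primeFactors) (by omega) p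
  have hr1 := Nat.prime_of_mem_primeFactors hr
  have hr2 := Nat.dvd_of_mem_primeFactors hr
  have hsM : Group.IsSolvable M := solvable_of_nilpotent (nilpotent_of_le (fittingOf_nil H) hM)
  have hsL : Group.IsSolvable ↥(R ⊔ M) := solvable_sup hR hsM (Or.inr hMR)
  have h1 : zF H r ≤ piCoreOf {p}ᶜ (R ⊔ M) := by
    refine H48.bender hp hsL ((hZM p).trans le_sup_right) ((zF_pi H p).isPGroup hp)
      ((hZM r).trans le_sup_right) ((zF_pi H r).compl_singleton_of_ne hrp)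
      ((hZM r).trans (hMZ p)) ?_
    refine le_trans ?_ (le_norm_zF H r)
    exact (inf_le_right.trans (cent_le_norm _)).trans (norm_zF hHmax hp hd).le
  have h2 : Y ⊓ 𝒞(zF H r) = ⊥ := by
    refine maxLocal_triv hM hCM hR hXR (inf_le_left.trans hYR) ?_
      (coprime_of_le hc inf_le_left le_rfl) (norm_inf hMY (norm_of_le (hMZ r)))
    exact (inf_le_right.trans (cent_le_norm _)).trans (norm_zF hHmax hr1 hr2).le
  have h3 : ⁅Y, zF H r⁆ = Y :=
    coprime_comm_eq_of_cent ((hZM r).trans hMY) (coprime_of_le hc.symm (zF_le H r) le_rfl)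
      (Or.inl (solvable_of_nilpotent (zF_pi H r).nilpotent)) h2
  have h4 : Y ≤ piCoreOf {p}ᶜ (R ⊔ M) := by
    rw [← h3]
    exact (commutator_mono le_rfl h1).trans (commutator_le_right_of_norm
      ((hYR.trans le_sup_left).trans (le_norm_piCoreOf _ _)))
  exact (le_inf h4 hYR).trans (piCoreOf_inf_le _ le_sup_left)

theorem maxLocal_unique {H M R : Subgroup G}
    (hHmax : ∀ L : Subgroup G, Cfsg.IsLocalSubgroup L → H ≤ L → L = H)
    (hF2 : 2 ≤ (Nat.card (fittingOf H)).primeFactors.card) (hM : M ≤ fittingOf H)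
    (hCM : fittingOf H ⊓ 𝒞(M) ≤ M) (hR : Group.IsSolvable R) (hMR : M ≤ 𝒩(R))
    (hXR : H ⊓ 𝒞(fittingOf H) ≤ 𝒩(R)) {q : ℕ}
    (hqF : ¬ q ∣ Nat.card (fittingOf H)) :
    ∃ Q, IsSylowOf q Q (piCoreOf (primesNotDvd (Nat.card (fittingOf H))) R) ∧ M ≤ 𝒩(Q) ∧
      ∀ Y, Y ≤ R → IsPi {q} Y → M ≤ 𝒩(Y) → Y ≤ Q := by
  set F := fittingOf H with hF
  set K := piCoreOf (primesNotDvd (Nat.card F)) R with hK
  have hsM : Group.IsSolvable M := solvable_of_nilpotent (nilpotent_of_le (fittingOf_nil H) hM)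
  have hsK : Group.IsSolvable K := solvable_of_le hR (piCoreOf_le _ _)
  have hMK : M ≤ 𝒩(K) := norm_piCoreOf _ hMR
  have hcK : (Nat.card F).Coprime (Nat.card K) := H48.coprime_of_primesNotDvd (piCoreOf_pi _ _)
  have hc : (Nat.card M).Coprime (Nat.card K) := coprime_of_le hcK hM le_rfl
  have hCK : K ⊓ 𝒞(M) = ⊥ := by
    obtain ⟨p, hp⟩ := Finset.card_pos.1 (show 0 < (Nat.card F).primeFactors.card by omega)
    have hp1 := Nat.prime_of_mem_primeFactors hp
    have hp2 := Nat.dvd_of_mem_primeFactors hp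
    have hZM : zF H p ≤ M :=
      (le_inf (zF_le H p) ((zF_le_cent H p).trans (cent_anti hM))).trans hCM
    refine maxLocal_triv hM hCM hR hXR (inf_le_left.trans (piCoreOf_le _ _)) ?_
      (coprime_of_le hcK.symm inf_le_left le_rfl) (norm_inf hMK (norm_cent le_normalizer))
    exact ((inf_le_right.trans (cent_anti hZM)).trans (cent_le_norm _)).trans
      (norm_zF hHmax hp1 hp2).le
  obtain ⟨Q, hQ, hMQ⟩ := coprime_hall_exists hMK hc hsM hsK {q}
  refine ⟨Q, hQ, hMQ, fun Y hYR hY hMY => ?_⟩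
  have hYK : Y ≤ K := maxLocal_le_core hHmax hF2 hM hCM hR hMR hXR hYR
    (H48.coprime_of_primesNotDvd (H48.isPi_primesNotDvd_of_singleton hqF hY)).symm hMY
  obtain ⟨Q', hQ', hMQ', hYQ'⟩ := coprime_hall_ge hMK hc hsM hsK hY hYK hMY
  obtain ⟨c, hc1, hc2⟩ := coprime_hall_trans hMK hc hsK hQ' hQ hMQ' hMQ
  rw [hCK, mem_bot] at hc1
  rw [hc1, cj_one] at hc2
  exact hc2 ▸ hYQ'

end Cfsg.Agent.H51
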